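import Mathlib

set_option autoImplicit false
set_option linter.style.haveILetI false

namespace Cfsg.Agent.Suborbit

open MulAction Matrix

variable {G Ω : Type*} [Group G] [MulAction G Ω]

open scoped Classical in
/-- `[x ∈ c • O]` for a left coset `c` of `H`. -/
noncomputable def blockInd (H : Subgroup G) (O : Set Ω) (c : G ⧸ H) (x : Ω) : ℚ :=
  if c.out⁻¹ • x ∈ O then 1 else 0

theorem blockInd_smul {H : Subgroup G} {O : Set Ω} (hO : ∀ h ∈ H, ∀ x : Ω, h • x ∈ O ↔ x ∈ O)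
    (g : G) (c : G ⧸ H) (x : Ω) : blockInd H O (g • c) (g • x) = blockInd H O c x := by
  classical
  have hmem : ((g • c).out)⁻¹ * g * c.out ∈ H := by
    rw [mul_assoc, ← QuotientGroup.eq, QuotientGroup.out_eq', ← smul_eq_mul, ← MulAction.Quotient.smul_mk,
      QuotientGroup.out_eq']
  have := hO _ hmem (c.out⁻¹ • x)
  unfold blockInd
  refine if_congr ?_ rfl rfl
  rw [← this, ← mul_smul, ← mul_smul, mul_assoc, mul_inv_cancel, mul_one]

theorem blockInd_one_iff {H : Subgroup G} {O : Set Ω} (c : G ⧸ H) (x : Ω) :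
    blockInd H O c x = 1 ↔ c.out⁻¹ • x ∈ O := by
  classical
  by_cases h : c.out⁻¹ • x ∈ O <;> simp [blockInd, h]

theorem blockInd_cases (H : Subgroup G) (O : Set Ω) (c : G ⧸ H) (x : Ω) :
    blockInd H O c x = 1 ∧ c.out⁻¹ • x ∈ O ∨ blockInd H O c x = 0 ∧ c.out⁻¹ • x ∉ O := by
  classical
  by_cases h : c.out⁻¹ • x ∈ O <;> simp [blockInd, h]

theorem eq_const_of_two_transitive [Fintype Ω] [DecidableEq Ω] (h2 : IsMultiplyPretransitive G Ω 2)
    (P : Matrix Ω Ω ℚ) (hP : ∀ (g : G) x y, P (g • x) (g • y) = P x y) :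
    ∃ d e : ℚ, (∀ x, P x x = d) ∧ ∀ x y, x ≠ y → P x y = e := by
  haveI := h2
  haveI : IsPretransitive G Ω := isPretransitive_of_is_two_pretransitive
  rcases isEmpty_or_nonempty Ω with h | ⟨⟨x₀⟩⟩
  · exact ⟨0, 0, isEmptyElim, isEmptyElim⟩
  by_cases hex : ∃ y : Ω, x₀ ≠ y
  · obtain ⟨y₀, hy₀⟩ := hex
    refine ⟨P x₀ x₀, P x₀ y₀, fun x => ?_, fun x y hxy => ?_⟩
    · obtain ⟨g, rfl⟩ := exists_smul_eq G x₀ x
      exact hP g x₀ x₀
    · obtain ⟨g, h1, h2'⟩ := (is_two_pretransitive_iff.1 h2) hy₀ hxy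
      rw [← h1, ← h2', hP]
  · push Not at hex
    exact ⟨P x₀ x₀, 0, fun x => by rw [← hex x], fun x y hxy => absurd ((hex x).symm.trans (hex y)) hxy⟩

theorem two_orbits [Finite G] [Finite Ω] (h2 : IsMultiplyPretransitive G Ω 2) (H : Subgroup G)
    (hidx : H.index = Nat.card Ω) (O₁ O₂ : Set Ω)
    (h₁ : ∀ h ∈ H, ∀ x : Ω, h • x ∈ O₁ ↔ x ∈ O₁) (h₂ : ∀ h ∈ H, ∀ x : Ω, h • x ∈ O₂ ↔ x ∈ O₂)
    (hd : ∀ x, x ∈ O₁ → x ∈ O₂ → False) (x₁ x₂ : Ω) (hx₁ : x₁ ∈ O₁) (hx₂ : x₂ ∈ O₂) :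
    ∀ x, x ∈ O₁ ∨ x ∈ O₂ := by
  classical
  haveI := Fintype.ofFinite Ω
  haveI := Fintype.ofFinite (G ⧸ H)
  haveI := h2
  haveI : IsPretransitive G Ω := isPretransitive_of_is_two_pretransitive
  have hc : Fintype.card Ω = Fintype.card (G ⧸ H) := by
    rw [← Nat.card_eq_fintype_card, ← Nat.card_eq_fintype_card, ← hidx]
    rfl
  let e : Ω ≃ G ⧸ H := Fintype.equivOfCardEq hc
  let M : Set Ω → Matrix Ω Ω ℚ := fun O => Matrix.of fun i x => blockInd H O (e i) x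
  let P : Set Ω → Set Ω → Matrix Ω Ω ℚ := fun O O' => (M O)ᵀ * M O'
  have happ : ∀ O O' x y, P O O' x y = ∑ c : G ⧸ H, blockInd H O c x * blockInd H O' c y := fun O O' x y => by
    simp only [P, M, Matrix.mul_apply, Matrix.transpose_apply, Matrix.of_apply]
    exact e.sum_comp (fun c => blockInd H O c x * blockInd H O' c y)
  have hinv : ∀ O O', (∀ h ∈ H, ∀ x : Ω, h • x ∈ O ↔ x ∈ O) → (∀ h ∈ H, ∀ x : Ω, h • x ∈ O' ↔ x ∈ O') →
      ∀ (g : G) x y, P O O' (g • x) (g • y) = P O O' x y := fun O O' hO hO' g x y => by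
    rw [happ, happ, ← Equiv.sum_comp (MulAction.toPerm g : Equiv.Perm (G ⧸ H))]
    exact Finset.sum_congr rfl fun c _ => by
      rw [MulAction.toPerm_apply, blockInd_smul hO, blockInd_smul hO']
  obtain ⟨d, f, hdd, hff⟩ := eq_const_of_two_transitive h2 _ (hinv O₁ O₁ h₁ h₁)
  obtain ⟨d', μ, hdd', hμ⟩ := eq_const_of_two_transitive h2 _ (hinv O₁ O₂ h₁ h₂)
  have hd' : d' = 0 := by
    rw [← hdd' x₁, happ]
    refine Finset.sum_eq_zero fun c _ => ?_
    rcases blockInd_cases H O₁ c x₁ with ⟨-, h⟩ | ⟨h, -⟩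
    · rcases blockInd_cases H O₂ c x₁ with ⟨-, h'⟩ | ⟨h', -⟩
      · exact (hd _ h h').elim
      · rw [h', mul_zero]
    · rw [h, zero_mul]
  obtain ⟨a, ha⟩ : ∃ a : ℚ, ∀ c : G ⧸ H, ∑ x, blockInd H O₁ c x = a := by
    refine ⟨∑ x, blockInd H O₁ ((1 : G) : G ⧸ H) x, fun c => ?_⟩
    obtain ⟨g, rfl⟩ := exists_smul_eq G ((1 : G) : G ⧸ H) c
    rw [← Equiv.sum_comp (MulAction.toPerm g : Equiv.Perm Ω)]
    exact Finset.sum_congr rfl fun x _ => by rw [MulAction.toPerm_apply, blockInd_smul h₁]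
  have hnonneg : ∀ (O : Set Ω) (c : G ⧸ H) (x : Ω), (0 : ℚ) ≤ blockInd H O c x := fun O c x => by
    rcases blockInd_cases H O c x with ⟨h, -⟩ | ⟨h, -⟩ <;> simp [h]
  have hdpos : 0 < d := by
    rw [← hdd x₁, happ]
    refine Finset.sum_pos' (fun c _ => mul_nonneg (hnonneg _ _ _) (hnonneg _ _ _))
      ⟨((1 : G) : G ⧸ H), Finset.mem_univ _, ?_⟩
    rw [(blockInd_one_iff _ _).2 ?_]
    · norm_num
    · refine (h₁ _ (inv_mem ?_) x₁).2 hx₁
      simpa using QuotientGroup.eq.1 (QuotientGroup.out_eq' ((1 : G) : G ⧸ H)).symm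
  have hdf : f < d := by
    by_contra hle
    push Not at hle
    -- a translate containing a point contains everything
    let c₁ : G ⧸ H := ((1 : G) : G ⧸ H)
    have hc₁ : ∀ O : Set Ω, (∀ h ∈ H, ∀ x : Ω, h • x ∈ O ↔ x ∈ O) → ∀ x, blockInd H O c₁ x = 1 ↔ x ∈ O := fun O hO x => by
      rw [blockInd_one_iff]
      exact hO _ (inv_mem (by simpa [c₁] using QuotientGroup.eq.1 (QuotientGroup.out_eq' c₁).symm)) x
    have hne : x₁ ≠ x₂ := fun h => hd _ hx₁ (h ▸ hx₂)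
    have hall : ∀ c : G ⧸ H, blockInd H O₁ c x₁ = 1 → blockInd H O₁ c x₂ = 1 := by
      intro c hc'
      rcases blockInd_cases H O₁ c x₂ with ⟨h, -⟩ | ⟨h, -⟩
      · exact h
      exfalso
      rw [← hdd x₁, ← hff x₁ x₂ hne, happ, happ] at hle
      refine hle.not_gt (Finset.sum_lt_sum (fun i _ => ?_) ⟨c, Finset.mem_univ _, by rw [hc', h]; norm_num⟩)
      rcases blockInd_cases H O₁ i x₁ with ⟨h', -⟩ | ⟨h', -⟩ <;>
        rcases blockInd_cases H O₁ i x₂ with ⟨h'', -⟩ | ⟨h'', -⟩ <;> simp [h', h'']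
    exact hd x₂ ((hc₁ O₁ h₁ x₂).1 (hall c₁ ((hc₁ O₁ h₁ x₁).2 hx₁))) hx₂
  let one : Ω → ℚ := fun _ => 1
  have hM1 : M O₁ *ᵥ one = a • one := by
    ext i
    simp [M, one, Matrix.mulVec, dotProduct, ha]
  have hcol : (M O₁)ᵀ *ᵥ one = d • one := by
    ext x
    simp only [Matrix.mulVec, dotProduct, Matrix.transpose_apply, M, Matrix.of_apply, one, mul_one,
      Pi.smul_apply, smul_eq_mul]
    rw [e.sum_comp (fun c => blockInd H O₁ c x), ← hdd x, happ]
    refine Finset.sum_congr rfl fun c _ => ?_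
    rcases blockInd_cases H O₁ c x with ⟨h, -⟩ | ⟨h, -⟩ <;> simp [h]
  have hPmat : ∀ {D E : ℚ} (Q : Matrix Ω Ω ℚ), (∀ x, Q x x = D) → (∀ x y, x ≠ y → Q x y = E) →
      Q = (D - E) • (1 : Matrix Ω Ω ℚ) + E • Matrix.of fun _ _ => (1 : ℚ) := fun Q h h' => by
    ext x y
    rcases eq_or_ne x y with rfl | hxy
    · simp [h]
    · simp [h' x y hxy, Matrix.one_apply_ne hxy]
  have h11 := hPmat _ hdd hff
  have hrow : (d - f) + (Fintype.card Ω : ℚ) * f = a * d := by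
    have e1 := congrFun (congrArg (· *ᵥ one) h11) x₁
    have e2 : (P O₁ O₁ *ᵥ one) x₁ = a * d := by
      show (((M O₁)ᵀ * M O₁) *ᵥ one) x₁ = a * d
      rw [← Matrix.mulVec_mulVec, hM1, Matrix.mulVec_smul, hcol]
      simp [one]
    simp only [e2, Matrix.add_mulVec, Matrix.smul_mulVec, Matrix.one_mulVec, Pi.add_apply,
      Pi.smul_apply, smul_eq_mul] at e1
    simp [one, Matrix.mulVec, dotProduct] at e1
    linear_combination -e1
  have hapos : 0 < a := by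
    rw [← ha ((1 : G) : G ⧸ H)]
    refine Finset.sum_pos' (fun x _ => hnonneg _ _ _) ⟨x₁, Finset.mem_univ _, ?_⟩
    rw [(blockInd_one_iff _ _).2 ?_]
    · norm_num
    · refine (h₁ _ (inv_mem ?_) x₁).2 hx₁
      simpa using QuotientGroup.eq.1 (QuotientGroup.out_eq' ((1 : G) : G ⧸ H)).symm
  -- `M O₁` is invertible
  have hinj : ∀ X : Matrix Ω Ω ℚ, (M O₁)ᵀ * X = 0 → X = 0 := by
    intro X hX
    have h0 : IsUnit (M O₁)ᵀ := by
      rw [Matrix.isUnit_iff_isUnit_det, isUnit_iff_ne_zero]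
      intro hdet
      obtain ⟨v, hv, hv0⟩ := Matrix.exists_mulVec_eq_zero_iff.2 (show (M O₁).det = 0 by rwa [← Matrix.det_transpose])
      have hv1 : P O₁ O₁ *ᵥ v = 0 := by
        show ((M O₁)ᵀ * M O₁) *ᵥ v = 0
        rw [← Matrix.mulVec_mulVec, hv0, Matrix.mulVec_zero]
      rw [h11] at hv1
      have hpt : ∀ x, (d - f) * v x + f * ∑ y, v y = 0 := fun x => by
        have := congrFun hv1 x
        simp only [Matrix.add_mulVec, Matrix.smul_mulVec, Matrix.one_mulVec, Pi.add_apply, Pi.smul_apply,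
          smul_eq_mul, Pi.zero_apply] at this
        simpa [Matrix.mulVec, dotProduct] using this
      have hs : (a * d) * ∑ y, v y = 0 := by
        have := Finset.sum_congr (s₁ := Finset.univ) rfl fun x _ => hpt x
        simp only [Finset.sum_add_distrib, ← Finset.mul_sum, Finset.sum_const, Finset.card_univ,
          nsmul_eq_mul, mul_zero] at this
        rw [← hrow]
        linear_combination this
      have hs0 : ∑ y, v y = 0 := (mul_eq_zero.1 hs).resolve_left (mul_ne_zero hapos.ne' hdpos.ne')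
      exact hv (funext fun x => by
        have := hpt x
        rw [hs0, mul_zero, add_zero] at this
        exact (mul_eq_zero.1 this).resolve_left (sub_ne_zero.2 hdf.ne'))
    exact h0.mul_right_eq_zero.1 hX
  have h12 := hPmat _ hdd' hμ
  set α : ℚ := -μ / (d - f) with hα
  set β : ℚ := (μ - α * f) / d with hβ
  have hM2 : M O₂ = α • M O₁ + β • Matrix.of fun _ _ => (1 : ℚ) := by
    rw [← sub_eq_zero]
    refine hinj _ ?_
    have hJ : (M O₁)ᵀ * (Matrix.of fun _ _ => (1 : ℚ)) = d • Matrix.of fun _ _ => (1 : ℚ) := by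
      ext x y
      have := congrFun hcol x
      simpa [Matrix.mulVec, dotProduct, Matrix.mul_apply, one] using this
    rw [Matrix.mul_sub, Matrix.mul_add, Matrix.mul_smul, Matrix.mul_smul, hJ]
    change P O₁ O₂ - (α • P O₁ O₁ + _) = 0
    rw [h11, h12, hd']
    ext x y
    have hne : d - f ≠ 0 := sub_ne_zero.2 hdf.ne'
    have hdne : d ≠ 0 := hdpos.ne'
    simp only [Matrix.sub_apply, Matrix.add_apply, Matrix.smul_apply, Matrix.of_apply, smul_eq_mul,
      Matrix.zero_apply]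
    rw [hα, hβ, hα]
    field_simp
    ring
  let c₁ : G ⧸ H := ((1 : G) : G ⧸ H)
  have hrow₁ : ∀ x, blockInd H O₂ c₁ x = α * blockInd H O₁ c₁ x + β := fun x => by
    have := congrFun (congrFun hM2 (e.symm c₁)) x
    simpa [M] using this
  have hc₁ : ∀ O : Set Ω, (∀ h ∈ H, ∀ x : Ω, h • x ∈ O ↔ x ∈ O) → ∀ x, (c₁.out⁻¹ • x ∈ O ↔ x ∈ O) :=
    fun O hO x => hO _ (inv_mem (by simpa [c₁] using QuotientGroup.eq.1 (QuotientGroup.out_eq' c₁).symm)) x
  have hβ1 : β = 1 := by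
    have := hrow₁ x₂
    rcases blockInd_cases H O₁ c₁ x₂ with ⟨-, h⟩ | ⟨h0, -⟩
    · exact (hd x₂ ((hc₁ _ h₁ x₂).1 h) hx₂).elim
    rw [h0, mul_zero, zero_add, (blockInd_one_iff _ _).2 ((hc₁ _ h₂ x₂).2 hx₂)] at this
    exact this.symm
  intro x
  rcases blockInd_cases H O₁ c₁ x with ⟨-, h⟩ | ⟨h0, -⟩
  · exact Or.inl ((hc₁ _ h₁ x).1 h)
  · have := hrow₁ x
    rw [h0, mul_zero, zero_add, hβ1, blockInd_one_iff] at this
    exact Or.inr ((hc₁ _ h₂ x).1 this)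

end Cfsg.Agent.Suborbit
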